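-- Final assembly of the certificate MY8.
import Cfsg.Agent.Lib.Compute.TC.MY8.Keys0
import Cfsg.Agent.Lib.Compute.TC.MY8.Keys1
import Cfsg.Agent.Lib.Compute.TC.MY8.Keys2
import Cfsg.Agent.Lib.Compute.TC.MY8.Keys3
import Cfsg.Agent.Lib.Compute.TC.MY8.Keys4
import Cfsg.Agent.Lib.Compute.TC.MY8.Rel0
import Cfsg.Agent.Lib.Compute.TC.MY8.Rel1
import Cfsg.Agent.Lib.Compute.TC.MY8.Rel2
import Cfsg.Agent.Lib.Compute.TC.MY8.Rel3
import Cfsg.Agent.Lib.Compute.TC.MY8.Rel4
import Cfsg.Agent.Lib.Compute.TC.MY8.Rel5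
import Cfsg.Agent.Lib.Compute.TC.MY8.Rel6
import Cfsg.Agent.Lib.Compute.TC.MY8.Rel7
import Cfsg.Agent.Lib.Compute.TC.MY8.Rel8
import Cfsg.Agent.Lib.Compute.TC.MY8.Rel9
import Cfsg.Agent.Lib.Compute.TC.MY8.Rel10
import Cfsg.Agent.Lib.Compute.TC.MY8.Rel11
import Cfsg.Agent.Lib.Compute.TC.MY8.Rel12
import Cfsg.Agent.Lib.Compute.TC.MY8.Rel13
import Cfsg.Agent.Lib.Compute.TC.MY8.Rel14
import Cfsg.Agent.Lib.Compute.TC.MY8.Rel15
import Cfsg.Agent.Lib.Compute.TC.MY8.Rel16
import Cfsg.Agent.Lib.Compute.TC.MY8.Rel17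
import Cfsg.Agent.Lib.Compute.TC.MY8.Rel18
import Cfsg.Agent.Lib.Compute.TC.MY8.Rel19
import Cfsg.Agent.Lib.Compute.TC.MY8.Rel20
import Cfsg.Agent.Lib.Compute.TC.MY8.Rel21
import Cfsg.Agent.Lib.Compute.TC.MY8.Rel22
import Cfsg.Agent.Lib.Compute.TC.MY8.Rel23
import Cfsg.Agent.Lib.Compute.TC.MY8.Rel24
import Cfsg.Agent.Lib.Compute.TC.MY8.Rel25
import Cfsg.Agent.Lib.Compute.TC.MY8.Rel26
import Cfsg.Agent.Lib.Compute.TC.MY8.Rel27
import Cfsg.Agent.Lib.Compute.TC.MY8.Rel28
import Cfsg.Agent.Lib.Compute.TC.MY8.Rel29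
import Cfsg.Agent.Lib.Compute.TC.MY8.Rel30
import Cfsg.Agent.Lib.Compute.TC.MY8.Fin
set_option autoImplicit false
set_option maxRecDepth 1000000

open Cfsg.Agent.Lib.Compute.ToddCoxeterCore Cfsg.Agent.Lib.Compute.ToddCoxeterPresented Cfsg.Agent.Lib.Compute.TCFast

namespace Cfsg.Agent.Lib.Compute.TC.MY8

theorem rulesChk : rulesOK cfg.L cfg.inv relsL rT = true := by decide +kernel

theorem small : Small D cfg where
  hL := by decide +kernel
  hLp := by decide +kernel
  hnd := by decide +kernel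
  hinvL := by decide +kernel
  hinvP := by decide +kernel
  hinv2 := by decide +kernel
  hinvol := by decide +kernel
  hrels1 := by decide +kernel
  hrels2 := by decide +kernel
  hhw := by decide +kernel
  hN := by decide +kernel

theorem w0Chk : ∀ w ∈ D.hw, cfg.walk maxS w 0 (Nat.beq 0) = true := by decide +kernel

theorem keysFull : ∀ k, k < cfg.M → cfg.chkKey k = true := fun k hk =>
  (allFrom_chain (allFrom_chain (allFrom_chain (allFrom_chain (allFrom_chain (allFrom_nil cfg.chkKey (nat_lit 0)) keys0 (c := 66666) rfl) keys1 (c := 133333) rfl) keys2 (c := 199999) rfl) keys3 (c := 266666) rfl) keys4 (c := 335470) rfl) k (Nat.zero_le k) hk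

theorem relLt : ∀ a ∈ relsL, ∀ x ∈ a, x < cfg.L := by decide +kernel

theorem relFast : ∀ k, k < cfg.N → chkRelF cfg relsL k = true := fun k hk =>
  (allFrom_chain (allFrom_chain (allFrom_chain (allFrom_chain (allFrom_chain (allFrom_chain (allFrom_chain (allFrom_chain (allFrom_chain (allFrom_chain (allFrom_chain (allFrom_chain (allFrom_chain (allFrom_chain (allFrom_chain (allFrom_chain (allFrom_chain (allFrom_chain (allFrom_chain (allFrom_chain (allFrom_chain (allFrom_chain (allFrom_chain (allFrom_chain (allFrom_chain (allFrom_chain (allFrom_chain (allFrom_chain (allFrom_chain (allFrom_chain (allFrom_chain (allFrom_nil (chkRelF cfg relsL) (nat_lit 0)) rel0 (c := 943) rfl) rel1 (c := 1886) rfl) rel2 (c := 2829) rfl) rel3 (c := 3772) rfl) rel4 (c := 4715) rfl) rel5 (c := 5658) rfl) rel6 (c := 6601) rfl) rel7 (c := 7544) rfl) rel8 (c := 8487) rfl) rel9 (c := 9430) rfl) rel10 (c := 10373) rfl) rel11 (c := 11316) rfl) rel12 (c := 12259) rfl) rel13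 (c := 13202) rfl) rel14 (c := 14145) rfl) rel15 (c := 15088) rfl) rel16 (c := 16031) rfl) rel17 (c := 16974) rfl) rel18 (c := 17917) rfl) rel19 (c := 18860) rfl) rel20 (c := 19803) rfl) rel21 (c := 20746) rfl) rel22 (c := 21689) rfl) rel23 (c := 22632) rfl) rel24 (c := 23575) rfl) rel25 (c := 24518) rfl) rel26 (c := 25461) rfl) rel27 (c := 26404) rfl) rel28 (c := 27347) rfl) rel29 (c := 28290) rfl) rel30 (c := 28431) rfl) k (Nat.zero_le k) hk

theorem finFull : ∀ i, i < cfg.N → cfg.chkFin (List.range cfg.L) i = true := fun i hi =>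
  allFrom_all finAll rfl i (Nat.zero_le i) hi

theorem relFull : ∀ k, k < cfg.N → cfg.chkRel relsL k = true := fun k hk =>
  chkRel_of_fast finFull relLt hk (relFast k hk)

theorem big : Big D cfg where
  hwords := fun _ => rfl
  hrules := fun r => rulesOK_spec rulesChk r
  hw0 := w0Chk
  hkeys := keysFull
  hlbl := fun j hj hj' => allFrom_all lblAll rfl j (Nat.pos_of_ne_zero hj) hj'
  hfin := finFull
  hq := fun i hi hi' => allFrom_all qAll rfl i (Nat.pos_of_ne_zero hi) hi'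
  hrel := relFull

theorem hgens : ∀ a, (a, true) ∈ D.lets := by intro a; fin_cases a <;> decide

/-- the relators as a set -/
abbrev RR : Set (FreeGroup (Fin 9)) := {r | r ∈ rsL}

theorem hR : ∀ r, r ∈ RR ↔ r ∈ D.rs := fun _ => Iff.rfl

/-- The index of the subgroup. -/
theorem index : (HOf RR D.Hs).index = 28431 :=
  index_eq hR small big hgens

end Cfsg.Agent.Lib.Compute.TC.MY8
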